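import Cfsg.Agent.H519.TDU.Main

/-!
# The pair `(x, y)` of order `(r₁, p r)`: the abstract form (helper519, S2452)
-/

set_option autoImplicit false

open scoped ComplexConjugate
open Cfsg Subgroup

namespace Cfsg.Agent.H519.TDU

open Cfsg.Agent.Characters Cfsg.Agent.Characters.Core Cfsg.Agent.H678.CCExact Cfsg.Agent.H686.CharKit
  Cfsg.Agent.Characters.CCCounting Cfsg.Agent.Characters.CCBasic Cfsg.Agent.Characters.CCEstimates

universe u

variable {G : Type u} [Group G] [Finite G]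

/-- two characters: `y` is a product of two conjugates of `x` -/
theorem sq_of_two [IsSimpleGroup G] {x y : G} (hx : x ≠ 1) (hxy : ¬ IsConj x y) (B : IrrCharacter G)
    (hB : (B : G → ℂ) ≠ 1)
    (h : ∀ χ : IrrCharacter G, (χ : G → ℂ) x = 0 ∨ (χ : G → ℂ) y = 0 ∨ (χ : G → ℂ) = 1 ∨ χ = B) :
    ∃ u v : G, y = (u * x * u⁻¹) * (v * x * v⁻¹) := by
  classical
  have := Fintype.ofFinite G
  have hfin := finite_irr (G := G)
  have : Fintype (IrrCharacter G) := Fintype.ofFinite _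
  obtain ⟨I, hI⟩ : ∃ I : IrrCharacter G, I = ⟨1, isIrr_one⟩ := ⟨_, rfl⟩
  have hI1 : ∀ k : G, (I : G → ℂ) k = 1 := fun k => by rw [hI]; rfl
  have hIB : I ≠ B := by
    rintro rfl
    exact hB (by rw [hI])
  have hsum : ∀ F : IrrCharacter G → ℂ, (∀ χ : IrrCharacter G, (χ : G → ℂ) x = 0 ∨ (χ : G → ℂ) y = 0 → F χ = 0) →
      ∑ χ : IrrCharacter G, F χ = F I + F B := by
    intro F hF
    rw [← Finset.sum_pair hIB]
    symm
    apply Finset.sum_subset (Finset.subset_univ _)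
    intro χ _ hχ
    apply hF
    rcases h χ with h1 | h1 | h1 | h1
    · exact Or.inl h1
    · exact Or.inr h1
    · exfalso
      apply hχ
      rw [Finset.mem_insert]
      left
      apply Subtype.ext
      rw [h1, hI]
    · exfalso
      apply hχ
      rw [Finset.mem_insert, Finset.mem_singleton]
      exact Or.inr h1
  have h1 := col_zero hxy
  rw [hsum _ (fun χ hχ => by
    rcases hχ with h2 | h2
    · rw [h2, zero_mul]
    · rw [h2, map_zero, mul_zero]), hI1, hI1, map_one, mul_one] at h1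
  have h3 := Cfsg.Agent.Characters.ClassMul.card_conj_mul_conj x x y
  rw [hsum _ (fun χ hχ => by
    rcases hχ with h2 | h2
    · rw [h2, zero_mul, zero_mul, zero_div]
    · rw [h2, map_zero, mul_zero, zero_div]), hI1, hI1, hI1, map_one, mul_one, mul_one, div_one,
    show (B : G → ℂ) x * (B : G → ℂ) x * conj ((B : G → ℂ) y) = -(B : G → ℂ) x by linear_combination (B : G → ℂ) x * h1] at h3
  have hB1 : (B : G → ℂ) 1 ≠ 0 := isIrr_apply_one_ne_zero B.2
  have h4 : (1 : ℂ) + -(B : G → ℂ) x / (B : G → ℂ) 1 ≠ 0 := by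
    intro h5
    have h6 : (B : G → ℂ) x = (B : G → ℂ) 1 := by
      field_simp at h5
      linear_combination -h5
    exact hx (Cfsg.Agent.SmallSimple.DihedralNormalizer.eq_one_of_apply_eq B.2 hB h6)
  have h5 : Nat.card {p : G × G // p.1 * x * p.1⁻¹ * (p.2 * x * p.2⁻¹) = y} ≠ 0 := by
    intro h6
    rw [h6, Nat.cast_zero] at h3
    rcases mul_eq_zero.1 h3.symm with h7 | h7
    · exact Nat.card_pos.ne' (by exact_mod_cast h7)
    · exact h4 h7
  obtain ⟨⟨⟨u, v⟩, h6⟩⟩ := (Nat.card_ne_zero.1 h5).1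
  exact ⟨u, v, h6.symm⟩

/-- **Main theorem, second form**: the factorization form, one of the two middle characters given -/
theorem main2 {A : Subgroup G} (hA : IsCC A) {N s : ℕ}
    (hN : Nat.card A = N) (he : len A = 4) (hs : s * 4 + 1 = N) (h7 : 7 ≤ s) {p r : ℕ} [hp : Fact p.Prime]
    [hr : Fact r.Prime] {Q : ℕ} (St : IrrCharacter G) (hStd : charDegree (St : G → ℂ) = Q)
    (hQp : Q.factorization p = (Nat.card G).factorization p) (hQ1 : 1 < Q) (hQN : (N : ℤ) ∣ Q - 1)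
    (C : IrrCharacter G) {e3 : ℕ} (hCd : charDegree (C : G → ℂ) = e3) (hCN : (N : ℤ) ∣ e3 + 1)
    (hS : ∀ b d : ℕ, b ∣ Nat.card G → d ∣ Nat.card G → ∀ f ε : ℤ, (f = 1 ∨ f = -1) → (ε = 1 ∨ ε = -1) →
      (N : ℤ) ∣ b - f → (N : ℤ) ∣ d - 4 * ε → (1 : ℤ) + Q - e3 + f * b = ε * d →
      b.factorization r = (Nat.card G).factorization r ∧ d.factorization r = (Nat.card G).factorization r)
    {y : G} (hpy : p ∣ orderOf y) (hry : r ∣ orderOf y) {x : G} (hx : x ∈ A) (hx1 : x ≠ 1) :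
    (C : G → ℂ) ≠ 1 ∧ conj ((C : G → ℂ) x) = (C : G → ℂ) x ∧
      ∀ χ : IrrCharacter G, (χ : G → ℂ) x = 0 ∨ (χ : G → ℂ) y = 0 ∨ (χ : G → ℂ) = 1 ∨ χ = C := by
  classical
  have := Fintype.ofFinite G
  have hfin := finite_irr (G := G)
  have : Fintype (IrrCharacter G) := Fintype.ofFinite _
  obtain ⟨D⟩ := nonempty_ccData hA he (hs.trans hN.symm) (by omega : 2 ≤ s)
  have hc0 := c_zero D h7
  have hsq := D.sq
  have hsd := D.sd
  rw [hc0] at hsq hsd
  have hsq' : ∑ ψ : IrrCharacter G, D.f ψ ^ 2 = 4 := by push_cast at hsq; linarith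
  have hsd' : ∑ ψ : IrrCharacter G, (charDegree (ψ : G → ℂ) : ℤ) * D.f ψ = D.ε * D.d := by linarith
  obtain ⟨I, hI⟩ : ∃ I : IrrCharacter G, I = ⟨1, isIrr_one⟩ := ⟨_, rfl⟩
  have hI1 : ∀ k : G, (I : G → ℂ) k = 1 := fun k => by rw [hI]; rfl
  have hId : charDegree (I : G → ℂ) = 1 := (charDegree_eq_one_iff I).2 (hI1 1)
  have hISt : I ≠ St := by
    intro h
    rw [h, hStd] at hId
    omega
  have hIR : I ∉ D.R := fun h => by
    obtain ⟨a, -, -, h1⟩ := D.nonconst I h 1
    exact h1 (hI1 a)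
  have hfI : D.f I = 1 := by
    have h1 := D.hf I hIR x hx hx1
    rw [hI1] at h1
    exact_mod_cast h1.symm
  have hN29 : (29 : ℤ) ≤ N := by
    have : 29 ≤ N := by omega
    exact_mod_cast this
  have hdd := D.ddvd
  rw [hN, hc0] at hdd
  have hdN : (N : ℤ) ∣ D.d - 4 * D.ε := by
    have h1 : (D.d : ℤ) - 4 * D.ε = D.d - (D.ε * (4 : ℕ) + 0) := by push_cast; ring
    rw [h1]
    exact hdd
  have hnot : ∀ k : IrrCharacter G, ∀ e : ℤ, (e = 1 ∨ e = -1) → (N : ℤ) ∣ charDegree (k : G → ℂ) - e → k ∉ D.R := by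
    intro k e he h2 h
    rw [D.deg k h] at h2
    have h3 := dvd_sub h2 hdN
    have h4 : (D.d : ℤ) - e - (D.d - 4 * D.ε) = 4 * D.ε - e := by ring
    rw [h4] at h3
    have h5 := Int.eq_zero_of_abs_lt_dvd h3 (by
      rcases he with h | h <;> rcases D.hε with h' | h' <;> rw [h, h', abs_lt] <;> omega)
    rcases he with h | h <;> rcases D.hε with h' | h' <;> rw [h, h'] at h5 <;> norm_num at h5
  have hStR : St ∉ D.R := hnot St 1 (Or.inl rfl) (by rw [hStd]; exact hQN)
  have hCR : C ∉ D.R := hnot C (-1) (Or.inr rfl) (by rw [hCd, sub_neg_eq_add]; exact hCN)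
  have hle4 : ∀ k : IrrCharacter G, D.f k ^ 2 ≤ 4 := fun k => by
    rw [← hsq']
    exact Finset.single_le_sum (f := fun k => D.f k ^ 2) (fun _ _ => sq_nonneg _) (Finset.mem_univ k)
  have hval : ∀ k : IrrCharacter G, ∀ e : ℤ, (e = 1 ∨ e = -1) → (N : ℤ) ∣ charDegree (k : G → ℂ) - e → D.f k = e := by
    intro k e he h2
    have h1 := D.dvd k (hnot k e he h2)
    rw [hN] at h1
    have h3 := dvd_sub h2 h1
    have h4 : (charDegree (k : G → ℂ) : ℤ) - e - (charDegree (k : G → ℂ) - D.f k) = D.f k - e := by ring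
    rw [h4] at h3
    have h5 := hle4 k
    have h6 : D.f k ≤ 2 := by nlinarith
    have h7 : -2 ≤ D.f k := by nlinarith
    have h8 := Int.eq_zero_of_abs_lt_dvd h3 (by
      rcases he with h | h <;> rw [h, abs_lt] <;> omega)
    linarith
  have hfSt : D.f St = 1 := hval St 1 (Or.inl rfl) (by rw [hStd]; exact hQN)
  have hfC : D.f C = -1 := hval C (-1) (Or.inr rfl) (by rw [hCd, sub_neg_eq_add]; exact hCN)
  have hCI : C ≠ I := by
    rintro rfl
    rw [hfI] at hfC
    norm_num at hfC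
  have hCS : C ≠ St := by
    rintro rfl
    rw [hfSt] at hfC
    norm_num at hfC
  have hC1 : (C : G → ℂ) ≠ 1 := fun h => hCI (Subtype.ext (by rw [h, hI]))
  -- the fourth character
  obtain ⟨b, hbI, hbS, hbC, hfb, hall⟩ : ∃ b : IrrCharacter G, b ≠ I ∧ b ≠ St ∧ b ≠ C ∧ (D.f b = 1 ∨ D.f b = -1) ∧
      ∀ k, D.f k ≠ 0 → k = I ∨ k = St ∨ k = C ∨ k = b := by
    obtain ⟨a, b, hab, haI, haS, hbI, hbS, hfa, hfb, hall⟩ := four_sq hISt hfI hfSt hsq'
    rcases hall C (by rw [hfC]; norm_num) with h | h | h | h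
    · exact absurd h hCI
    · exact absurd h hCS
    · refine ⟨b, hbI, hbS, fun h' => hab (h.symm.trans h'.symm), hfb, fun k hk => ?_⟩
      rw [h]
      exact hall k hk
    · refine ⟨a, haI, haS, fun h' => hab (h'.trans h), hfa, fun k hk => ?_⟩
      rw [h]
      rcases hall k hk with h | h | h | h
      · exact Or.inl h
      · exact Or.inr (Or.inl h)
      · exact Or.inr (Or.inr (Or.inr h))
      · exact Or.inr (Or.inr (Or.inl h))
  have hfb0 : D.f b ≠ 0 := by rcases hfb with h | h <;> rw [h] <;> norm_num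
  have hbR : b ∉ D.R := fun h => hfb0 (D.hf0 b h)
  -- the degree equation
  have hsum : ∑ ψ : IrrCharacter G, (charDegree (ψ : G → ℂ) : ℤ) * D.f ψ =
      (charDegree (I : G → ℂ) : ℤ) * D.f I + ((charDegree (St : G → ℂ) : ℤ) * D.f St +
        ((charDegree (C : G → ℂ) : ℤ) * D.f C + (charDegree (b : G → ℂ) : ℤ) * D.f b)) := by
    have h1 : ∑ ψ : IrrCharacter G, (charDegree (ψ : G → ℂ) : ℤ) * D.f ψ =
        ∑ ψ ∈ ({I, St, C, b} : Finset (IrrCharacter G)), (charDegree (ψ : G → ℂ) : ℤ) * D.f ψ := by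
      symm
      apply Finset.sum_subset (Finset.subset_univ _)
      intro k _ hk
      by_cases h0 : D.f k = 0
      · rw [h0, mul_zero]
      · exfalso
        apply hk
        simp only [Finset.mem_insert, Finset.mem_singleton]
        exact hall k h0
    rw [h1, Finset.sum_insert, Finset.sum_insert, Finset.sum_pair hbC.symm]
    · simp only [Finset.mem_insert, Finset.mem_singleton, not_or]
      exact ⟨hCS.symm, hbS.symm⟩
    · simp only [Finset.mem_insert, Finset.mem_singleton, not_or]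
      exact ⟨hISt, hCI.symm, hbI.symm⟩
  have hdeg : (1 : ℤ) + Q - e3 + D.f b * charDegree (b : G → ℂ) = D.ε * D.d := by
    rw [← hsd', hsum, hId, hStd, hCd, hfI, hfSt, hfC]
    push_cast
    ring
  obtain ⟨ψ₀, hψ₀⟩ : ∃ ψ, ψ ∈ D.R := Finset.card_pos.1 (by rw [D.hcard]; omega)
  obtain ⟨hbr, hdr⟩ := hS _ _ (deg_dvd b) (by rw [← D.deg ψ₀ hψ₀]; exact deg_dvd ψ₀) (D.f b) D.ε
    hfb D.hε (by rw [← hN]; exact D.dvd b hbR) hdN hdeg
  refine ⟨hC1, by rw [D.hf C hCR x hx hx1, map_intCast], fun m => ?_⟩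
  by_cases hmR : m ∈ D.R
  · right; left
    exact Cfsg.Agent.H713.irr_zero_of_singular (p := r) (by rw [D.deg m hmR]; exact hdr) hry
  by_cases hm0 : D.f m = 0
  · left
    rw [D.hf m hmR x hx hx1, hm0, Int.cast_zero]
  rcases hall m hm0 with h | h | h | h
  · right; right; left
    rw [h, hI]
  · right; left
    rw [h]
    exact Cfsg.Agent.H713.irr_zero_of_singular (p := p) (by rw [hStd]; exact hQp) hpy
  · exact Or.inr (Or.inr (Or.inr h))
  · right; left
    rw [h]
    exact Cfsg.Agent.H713.irr_zero_of_singular (p := r) hbr hry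

end Cfsg.Agent.H519.TDU
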