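import Cfsg.Agent.H519.TDU.Deg
import Cfsg.Agent.H519.TDU.GenA
import Cfsg.Agent.H519.TDU.Fin
import Cfsg.Agent.H83.Eight.TwD4
import Cfsg.Agent.H588.TW.Defs
import Cfsg.Agent.H330.Gow
import Cfsg.Agent.Lib.Zsigmondy

/-!
# S2452: `³D₄(q)`, `q ≥ 4` (helper519)

`x` of prime order in the cyclic torus of order `q ^ 4 - q ^ 2 + 1`, `y = u z` of order `p r`, `u` a long root element,
`r` a primitive prime divisor of `q ^ 3 - 1`.
-/

set_option autoImplicit false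

open Cfsg Subgroup

namespace Cfsg.Agent.H519.TDU

open Cfsg.Lie Cfsg.Agent.H504.Zeros Cfsg.Agent.H504.ZeroTI Cfsg.Agent.H504.ZerosMod Cfsg.Agent.H129.CycT
  Cfsg.Agent.Characters.CCBasic Cfsg.Agent.Characters.CCEstimates Cfsg.Agent.Cit.HexBase

theorem fact_of_mul {M b m r : ℕ} (hM : M ≠ 0) (h : M = b * m) (hm : ¬ r ∣ m) :
    b.factorization r = M.factorization r := by
  have hb : b ≠ 0 := by
    rintro rfl
    exact hM (by rw [h, zero_mul])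
  have hm0 : m ≠ 0 := by
    rintro rfl
    exact hm (dvd_zero r)
  rw [h, Nat.factorization_mul hb hm0, Finsupp.add_apply, Nat.factorization_eq_zero_of_not_dvd hm, add_zero]

theorem N_cast {q N : ℕ} (hN : N + q ^ 2 = q ^ 4 + 1) : (N : ℤ) = (q : ℤ) ^ 4 - (q : ℤ) ^ 2 + 1 := by
  have : ((N + q ^ 2 : ℕ) : ℤ) = ((q ^ 4 + 1 : ℕ) : ℤ) := by rw [hN]
  push_cast at this
  linarith

theorem card_eq {q N : ℕ} (hq : 1 ≤ q) (hN : N + q ^ 2 = q ^ 4 + 1) :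
    q ^ 12 * (q ^ 2 - 1) * (q ^ 6 - 1) * (q ^ 8 + q ^ 4 + 1) = q ^ 12 * (N * (q ^ 6 - 1) ^ 2) := by
  have h2 : 1 ≤ q ^ 2 := Nat.one_le_pow _ _ hq
  have h6 : 1 ≤ q ^ 6 := Nat.one_le_pow _ _ hq
  zify [h2, h6]
  rw [N_cast hN]
  ring

theorem coprime_four {N d : ℕ} {ε : ℤ} (hε : ε = 1 ∨ ε = -1) (hN : Nat.Coprime N 4) (h : (N : ℤ) ∣ d - 4 * ε) :
    Nat.Coprime d N := by
  have h1 : ((Nat.gcd d N : ℕ) : ℤ) ∣ 4 * ε := by
    have h2 : ((Nat.gcd d N : ℕ) : ℤ) ∣ (d : ℤ) := by exact_mod_cast Nat.gcd_dvd_left d N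
    have h3 : ((Nat.gcd d N : ℕ) : ℤ) ∣ (N : ℤ) := by exact_mod_cast Nat.gcd_dvd_right d N
    have h4 := dvd_sub h2 (h3.trans h)
    have h5 : (d : ℤ) - (d - 4 * ε) = 4 * ε := by ring
    rwa [h5] at h4
  have h2 : ((Nat.gcd d N : ℕ) : ℤ) ∣ 4 := by
    rcases hε with rfl | rfl
    · simpa using h1
    · have h3 := h1.neg_right
      simpa using h3
  have h3 : Nat.gcd d N ∣ 4 := by exact_mod_cast h2
  have h4 := Nat.dvd_gcd (Nat.gcd_dvd_right d N) h3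
  rw [hN] at h4
  exact Nat.dvd_one.1 h4

theorem four_cop {q N : ℕ} (hN : N + q ^ 2 = q ^ 4 + 1) : Nat.Coprime N 4 := by
  have h1 : IsCoprime (N : ℤ) 2 := N_odd (N_cast hN)
  have h2 : IsCoprime (N : ℤ) ((4 : ℕ) : ℤ) := by
    have h3 := h1.pow_right (n := 2)
    norm_num at h3 ⊢
    exact h3
  exact Nat.isCoprime_iff_coprime.1 h2

theorem exists_s {q N : ℕ} (h4 : 4 ≤ q) (hN : N + q ^ 2 = q ^ 4 + 1) : ∃ s, s * 4 + 1 = N ∧ 7 ≤ s := by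
  have e4 : q ^ 4 = q ^ 2 * q ^ 2 := by ring
  have h16 : 16 ≤ q ^ 2 := by nlinarith
  obtain ⟨s, hs⟩ : ∃ s, s * 4 + 1 = N := by
    obtain ⟨t, ht⟩ : ∃ t, t = q ^ 2 := ⟨_, rfl⟩
    rw [e4, ← ht] at hN
    rw [← ht] at h16
    obtain ⟨k, hk⟩ : ∃ k, t = 4 * k ∨ t = 4 * k + 1 := by
      obtain ⟨m, hm | hm⟩ := Nat.even_or_odd' q
      · exact ⟨m ^ 2, Or.inl (by rw [ht, hm]; ring)⟩
      · exact ⟨m ^ 2 + m, Or.inr (by rw [ht, hm]; ring)⟩
    rcases hk with hk | hk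
    · obtain ⟨j, rfl⟩ : ∃ j, k = j + 1 := ⟨k - 1, by omega⟩
      refine ⟨(j + 1) * (4 * j + 3), ?_⟩
      have : t * t = (j + 1) * (4 * j + 3) * 4 + t := by rw [hk]; ring
      omega
    · refine ⟨(4 * k + 1) * k, ?_⟩
      have : t * t = (4 * k + 1) * k * 4 + t := by rw [hk]; ring
      omega
  refine ⟨s, hs, ?_⟩
  have : 16 * q ^ 2 ≤ q ^ 2 * q ^ 2 := Nat.mul_le_mul_right _ h16
  omega

theorem not_dvd_add {r x : ℕ} (hr : r.Prime) (h2 : r ≠ 2) (hx : 1 ≤ x) (h : r ∣ x - 1) : ¬ r ∣ x + 1 := by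
  intro h1
  have h3 := Nat.dvd_sub h1 h
  have h4 : x + 1 - (x - 1) = 2 := by omega
  rw [h4] at h3
  exact h2 ((Nat.prime_dvd_prime_iff_eq hr Nat.prime_two).1 h3)

/-- the `r`-parts -/
theorem r_parts {q N r b d : ℕ} (hq : 1 ≤ q) (hN : N + q ^ 2 = q ^ 4 + 1) (hN0 : N ≠ 0) (hr : r.Prime) (hr2 : r ≠ 2)
    (h3 : r ∣ q ^ 3 - 1) (h6 : r ∣ q ^ 6 - 1) (hrq : ¬ r ∣ q) (hb : 2 * b = q ^ 3 * (q ^ 3 - 1) ^ 2)
    (hd : d = (q ^ 6 - 1) ^ 2) (hM : q ^ 12 * (N * (q ^ 6 - 1) ^ 2) ≠ 0) :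
    b.factorization r = (q ^ 12 * (N * (q ^ 6 - 1) ^ 2)).factorization r ∧
      d.factorization r = (q ^ 12 * (N * (q ^ 6 - 1) ^ 2)).factorization r := by
  have hq3 : 1 ≤ q ^ 3 := Nat.one_le_pow _ _ hq
  have hq6 : 1 ≤ q ^ 6 := Nat.one_le_pow _ _ hq
  have hrN : ¬ r ∣ N := by
    intro h
    apply not_dvd_add hr hr2 hq6 h6
    have h7 : q ^ 6 + 1 = N * (q ^ 2 + 1) := by
      zify
      rw [N_cast hN]
      ring
    rw [h7]
    exact h.mul_right _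
  have hr3 := not_dvd_add hr hr2 hq3 h3
  have hr2' : ¬ r ∣ 2 := fun h => hr2 ((Nat.prime_dvd_prime_iff_eq hr Nat.prime_two).1 h)
  constructor
  · refine fact_of_mul hM (m := 2 * (q ^ 9 * (N * (q ^ 3 + 1) ^ 2))) ?_ ?_
    · have h7 : b * (2 * (q ^ 9 * (N * (q ^ 3 + 1) ^ 2))) = (2 * b) * (q ^ 9 * (N * (q ^ 3 + 1) ^ 2)) := by ring
      rw [h7, hb]
      zify [hq3, hq6]
      ring
    · intro h
      rcases hr.dvd_mul.1 h with h | h
      · exact hr2' h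
      rcases hr.dvd_mul.1 h with h | h
      · exact hrq (hr.dvd_of_dvd_pow h)
      rcases hr.dvd_mul.1 h with h | h
      · exact hrN h
      · exact hr3 (hr.dvd_of_dvd_pow h)
  · refine fact_of_mul hM (m := q ^ 12 * N) ?_ ?_
    · rw [hd]; ring
    · intro h
      rcases hr.dvd_mul.1 h with h | h
      · exact hrq (hr.dvd_of_dvd_pow h)
      · exact hrN h

variable {K : Type} [Field K] [Fintype K] {q : ℕ}

/-- **S2452: `³D₄(q)`, `q ≥ 4`** -/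
theorem t52_td4 (hq : IsPrimePow q) (h4 : 4 ≤ q) (hK : Fintype.card K = q ^ 3) :
    Cfsg.Agent.H588.TW.T52 ↥(twistedD4 K q) := by
  classical
  obtain ⟨p, a, hp0, ha0, hqa⟩ := id hq
  have hpp : p.Prime := hp0.nat_prime
  have hpf : Fact p.Prime := Fact.mk hpp
  obtain ⟨hsimp, hna⟩ := S1071.result (K := K) hq hK
  have hfin : Finite ↥(twistedD4 K q) := inferInstance
  have hcard := S1067.result (K := K) hq hK
  have hch : CharP K p := by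
    obtain ⟨t, ht⟩ := CharP.exists K
    obtain ⟨n, hn, hc⟩ := FiniteField.card K t
    have h1 : t ∣ q ^ 3 := by
      rw [← hK, hc]
      exact dvd_pow_self t n.pos.ne'
    have h3 : t ∣ p ^ a := by
      rw [hqa]
      exact hn.dvd_of_dvd_pow h1
    have h2 : t = p := (Nat.prime_dvd_prime_iff_eq hn hpp).1 (hn.dvd_of_dvd_pow h3)
    rwa [h2] at ht
  have hlie := lie_td4 K p hq hK
  -- the prime `r`
  obtain ⟨r, hrp, hrm, hr3, hrq⟩ := Cfsg.Agent.Lib.Zsigmondy.exists_primitive (a := q) (n := 3) (by omega) (by norm_num)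
    (by norm_num) (by omega)
  have hrf : Fact r.Prime := Fact.mk hrp
  have hr2 : r ≠ 2 := by
    rintro rfl
    revert hr3
    norm_num
  have hrd3 : r ∣ q ^ 3 - 1 := (hrm 3).2 dvd_rfl
  have hrd6 : r ∣ q ^ 6 - 1 := (hrm 6).2 (by norm_num)
  have hpq : p ∣ q := by
    rw [← hqa]
    exact dvd_pow_self p ha0.ne'
  have hpr : p ≠ r := by
    rintro rfl
    exact hrq hpq
  -- `N`
  obtain ⟨N, hN⟩ : ∃ N, N + q ^ 2 = q ^ 4 + 1 := by
    have : q ^ 2 ≤ q ^ 4 := Nat.pow_le_pow_right (by omega) (by norm_num)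
    exact ⟨q ^ 4 - q ^ 2 + 1, by omega⟩
  obtain ⟨s, hs, h7⟩ := exists_s h4 hN
  have hN0 : N ≠ 0 := by omega
  have hNz' := N_cast hN
  have hNz : (N : ℤ) = 1 - (q : ℤ) ^ 2 + (q : ℤ) ^ 4 := by rw [hNz']; ring
  have hq1 : 1 ≤ q := by omega
  have hcard' : Nat.card ↥(twistedD4 K q) = q ^ 12 * (N * (q ^ 6 - 1) ^ 2) := by
    rw [hcard]
    exact card_eq hq1 hN
  have hM0 : q ^ 12 * (N * (q ^ 6 - 1) ^ 2) ≠ 0 := by
    rw [← hcard']
    exact Nat.card_pos.ne'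
  have hpN : ¬ p ∣ N := by
    intro h
    have h1 : p ∣ N + q ^ 2 := dvd_add h (hpq.trans (dvd_pow_self q two_ne_zero))
    rw [hN] at h1
    have h2 := (Nat.dvd_add_right (hpq.trans (dvd_pow_self q (by norm_num : (4 : ℕ) ≠ 0)))).1 h1
    exact hpp.one_lt.ne' (Nat.dvd_one.1 h2)
  have hp6 : ¬ p ∣ q ^ 6 - 1 := by
    intro h
    have h1 : 1 ≤ q ^ 6 := Nat.one_le_pow _ _ hq1
    have h2 : p ∣ q ^ 6 - 1 + 1 := by
      rw [Nat.sub_add_cancel h1]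
      exact hpq.trans (dvd_pow_self q (by norm_num))
    have h3 := (Nat.dvd_add_right h).1 h2
    exact hpp.one_lt.ne' (Nat.dvd_one.1 h3)
  have hQp : (q ^ 12).factorization p = (Nat.card ↥(twistedD4 K q)).factorization p := by
    rw [hcard']
    refine fact_of_mul hM0 (m := N * (q ^ 6 - 1) ^ 2) rfl ?_
    intro h
    rcases hpp.dvd_mul.1 h with h | h
    · exact hpN h
    · exact hp6 (hpp.dvd_of_dvd_pow h)
  -- the torus
  obtain ⟨A, hAc, hAN, hAz⟩ := Cfsg.Agent.H129.CycT.exact_tD4_12 (F := K) hq hK hNz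
  have hCC : CC A := cc_of_cyclic hAc hAz
  have hc : (Nat.card ↥(twistedD4 K q) : ℤ) = N * ((q : ℤ) ^ 12 * ((q : ℤ) ^ 2 - 1) *
      ((q : ℤ) ^ 6 - 1) * (1 + (q : ℤ) ^ 2 + (q : ℤ) ^ 4)) := by
    have hsub : ∀ d, ((q ^ d - 1 : ℕ) : ℤ) = (q : ℤ) ^ d - 1 := by
      intro d
      rw [Nat.cast_sub (Nat.one_le_pow _ _ hq1)]
      push_cast
      rfl
    rw [hcard, Nat.cast_mul, Nat.cast_mul, Nat.cast_mul, hsub, hsub, hNz]
    push_cast
    ring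
  have hmod : (((q : ℤ) ^ 12 * ((q : ℤ) ^ 2 - 1) *
      ((q : ℤ) ^ 6 - 1) * (1 + (q : ℤ) ^ 2 + (q : ℤ) ^ 4) : ℤ) : ZMod N) = ((4 : ℕ) : ZMod N) := by
    have h6 : ((1 - (q : ℤ) ^ 2 + (q : ℤ) ^ 4 : ℤ) : ZMod N) = 0 := by
      rw [← hNz]
      simp
    push_cast at h6 ⊢
    exact mod_D4_12 h6
  have he : eIdx A = 4 := eIdx_of_int hCC hAN (by omega) (by omega) hc hmod
  have hne : A ≠ ⊥ := by
    rintro rfl
    rw [Subgroup.card_bot] at hAN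
    omega
  have hIs : IsCC A := ⟨hne, hAz⟩
  -- the element `x`
  have hr1 : N.minFac.Prime := Nat.minFac_prime (by omega)
  have hr1f : Fact N.minFac.Prime := Fact.mk hr1
  obtain ⟨x0, hx0⟩ : ∃ x0 : A, orderOf x0 = N.minFac :=
    exists_prime_orderOf_dvd_card' N.minFac (by rw [hAN]; exact Nat.minFac_dvd N)
  obtain ⟨x, hxx⟩ : ∃ x : ↥(twistedD4 K q), x = x0 := ⟨_, rfl⟩
  have hxo : orderOf x = N.minFac := by rw [hxx, Subgroup.orderOf_coe, hx0]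
  have hx : x ∈ A := by rw [hxx]; exact x0.2
  have hx1 : x ≠ 1 := by
    intro h
    rw [h, orderOf_one] at hxo
    exact hr1.one_lt.ne hxo
  have hpx : ¬ p ∣ orderOf x := fun h => by
    rw [hxo] at h
    exact hpN (h.trans (Nat.minFac_dvd N))
  have hpc : ¬ p ∣ Nat.card ↥(centralizer ({x} : Set ↥(twistedD4 K q))) := by
    intro h
    have h1 : centralizer ({x} : Set ↥(twistedD4 K q)) ≤ A := (hAz x hx hx1).le
    have h2 := Subgroup.card_dvd_of_le h1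
    rw [hAN] at h2
    exact hpN (h.trans h2)
  -- the elements `u`, `z`
  obtain ⟨σ, hσ, ⟨c⟩⟩ := Cfsg.Agent.Cit.HexD4.exists_d4 (K := K) hK
  have hEK : Nat.card K = q ^ 3 := by rw [Nat.card_eq_fintype_card, hK]
  have hfx : Nat.card ↥(fx σ) = q := Cfsg.Agent.H311.card_fx hK hσ
  obtain ⟨u, z, hu, hz, huz, hui, huo⟩ := exists_uz c (p := p) (r := r) hpr hr2 (by rw [hEK]; exact hrd3) (by
    rw [← hQp, hEK, hfx]
    congr 2
    ring)
  have hpy : p ∣ orderOf (u * z) := by rw [huo]; exact dvd_mul_right _ _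
  have hry : r ∣ orderOf (u * z) := by rw [huo]; exact dvd_mul_left _ _
  have hxy : ¬ IsConj x (u * z) := by
    intro h
    have h1 : orderOf x = orderOf (u * z) := by
      obtain ⟨c, hc⟩ := isConj_iff.1 h
      rw [← hc]
      exact ((MulAut.conj c).orderOf_eq x).symm
    rw [← h1] at hpy
    exact hpx hpy
  -- the characters
  obtain ⟨χ₂, hχ₂⟩ := H83.Eight.TwD4.st hq hK
  obtain ⟨⟨d2, h2⟩, ⟨e3, h3⟩⟩ := H83.Eight.TwD4.exists_half q N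
  obtain ⟨-, -, ⟨χ₃, hχ₃⟩, -⟩ := H83.Eight.TwD4.unip hq hK hN h2 h3
  obtain ⟨m1, m2⟩ := H83.Eight.TwD4.residues hN h3
  obtain ⟨hC1, hCx, hall⟩ := main2 hIs hAN (by rw [len_eq, he]) hs h7 (p := p) (r := r) (Q := q ^ 12) χ₂ hχ₂ hQp
    (Nat.one_lt_pow (by norm_num) hq.one_lt) (by push_cast; exact m2) χ₃ hχ₃ m1 (by
      intro b d hb hd f ε hf hε hbN hdN heq
      have hb' : b ∣ q ^ 12 * (q ^ 6 - 1) ^ 2 := by
        rw [hcard'] at hb
        have h1 : q ^ 12 * (N * (q ^ 6 - 1) ^ 2) = N * (q ^ 12 * (q ^ 6 - 1) ^ 2) := by ring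
        rw [h1] at hb
        exact (coprime_of hf hbN).dvd_of_dvd_mul_left hb
      have hd' : d ∣ q ^ 12 * (q ^ 6 - 1) ^ 2 := by
        rw [hcard'] at hd
        have h1 : q ^ 12 * (N * (q ^ 6 - 1) ^ 2) = N * (q ^ 12 * (q ^ 6 - 1) ^ 2) := by ring
        rw [h1] at hd
        exact (coprime_four hε (four_cop hN) hdN).dvd_of_dvd_mul_left hd
      obtain ⟨e1, e2⟩ := deg_td hpp ha0 hqa.symm h4 hN h3 hf hε hb' hd' hbN heq
      rw [hcard']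
      exact r_parts hq1 hN hN0 hrp hr2 hrd3 hrd6 hrq e1 e2 hM0) hpy hry hx hx1
  refine Cfsg.Agent.H588.TW.T52.of_pair (x := x) (y := u * z) (by rw [hxo]; exact hr1)
    (Or.inr ⟨p, r, hpp, hrp, hpr, huo⟩) (fun g hg => prod_of_two hxy χ₃ hC1 hCx hall hg)
    (sq_of_two hx1 hxy χ₃ hC1 hall) ?_
  obtain ⟨v, w, e⟩ := Cfsg.Agent.H330.Gow.gow hpp hlie hpc hpc (z := x⁻¹) (inv_ne_one.2 hx1)
    (by rw [orderOf_inv]; exact hpx)
  exact ⟨v, w, 1, by rw [e]; group⟩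

end Cfsg.Agent.H519.TDU
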